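import Mathlib
import Cfsg.Prelude.Def_LocalEven

/-!
# The group `Qd` over a field: block homomorphism, section, translations (S2762)
-/

set_option autoImplicit false

namespace Cfsg.Agent.Lib.Helper3.QdOver

open Matrix

variable {F : Type*} [Field F]

/-- The defining set of `Cfsg.qdOver F` is already a subgroup. -/
def qdSub (F : Type*) [Field F] : Subgroup (Matrix.SpecialLinearGroup (Fin 3) F) where
  carrier := {M | (M : Matrix (Fin 3) (Fin 3) F) 2 0 = 0 ∧
    (M : Matrix (Fin 3) (Fin 3) F) 2 1 = 0 ∧ (M : Matrix (Fin 3) (Fin 3) F) 2 2 = 1}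
  mul_mem' := by
    rintro a b ⟨a1, a2, a3⟩ ⟨b1, b2, b3⟩
    simp only [Set.mem_ofPred_eq, Matrix.SpecialLinearGroup.coe_mul, Matrix.mul_apply,
      Fin.sum_univ_three]
    simp [a1, a2, a3, b1, b2, b3]
  one_mem' := by
    simp
  inv_mem' := by
    rintro a ⟨a1, a2, a3⟩
    have hd := a.det_coe
    rw [Matrix.det_fin_three, a1, a2, a3] at hd
    simp only [Set.mem_ofPred_eq, Matrix.SpecialLinearGroup.coe_inv, Matrix.adjugate_fin_three]
    simp only [Matrix.of_apply, Matrix.cons_val', Matrix.cons_val_zero, Matrix.cons_val_one,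
      Matrix.cons_val, a1, a2]
    refine ⟨by ring, by ring, ?_⟩
    linear_combination hd

theorem qdOver_eq : Cfsg.qdOver F = qdSub F := Subgroup.closure_eq (qdSub F)

theorem mem_iff (M : Matrix.SpecialLinearGroup (Fin 3) F) :
    M ∈ Cfsg.qdOver F ↔ (M : Matrix (Fin 3) (Fin 3) F) 2 0 = 0 ∧
    (M : Matrix (Fin 3) (Fin 3) F) 2 1 = 0 ∧ (M : Matrix (Fin 3) (Fin 3) F) 2 2 = 1 := by
  rw [qdOver_eq]; rfl

/-- The underlying matrix. -/
abbrev m (g : ↥(Cfsg.qdOver F)) : Matrix (Fin 3) (Fin 3) F :=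
  ((g : Matrix.SpecialLinearGroup (Fin 3) F) : Matrix (Fin 3) (Fin 3) F)

theorem m20 (g : ↥(Cfsg.qdOver F)) : m g 2 0 = 0 := ((mem_iff g.1).1 g.2).1
theorem m21 (g : ↥(Cfsg.qdOver F)) : m g 2 1 = 0 := ((mem_iff g.1).1 g.2).2.1
theorem m22 (g : ↥(Cfsg.qdOver F)) : m g 2 2 = 1 := ((mem_iff g.1).1 g.2).2.2

theorem m_mul (g h : ↥(Cfsg.qdOver F)) : m (g * h) = m g * m h := rfl
theorem m_one : m (1 : ↥(Cfsg.qdOver F)) = 1 := rfl

theorem m_mul_apply (g h : ↥(Cfsg.qdOver F)) (i j : Fin 3) :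
    m (g * h) i j = m g i 0 * m h 0 j + m g i 1 * m h 1 j + m g i 2 * m h 2 j := by
  rw [m_mul, Matrix.mul_apply, Fin.sum_univ_three]

theorem q_ext {g h : ↥(Cfsg.qdOver F)} (H : m g = m h) : g = h :=
  Subtype.ext (Subtype.ext H)

theorem q_ext' {g h : ↥(Cfsg.qdOver F)} (h00 : m g 0 0 = m h 0 0) (h01 : m g 0 1 = m h 0 1)
    (h02 : m g 0 2 = m h 0 2) (h10 : m g 1 0 = m h 1 0) (h11 : m g 1 1 = m h 1 1)
    (h12 : m g 1 2 = m h 1 2) : g = h := by
  apply q_ext
  ext i j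
  fin_cases i <;> fin_cases j
  · exact h00
  · exact h01
  · exact h02
  · exact h10
  · exact h11
  · exact h12
  · exact (m20 g).trans (m20 h).symm
  · exact (m21 g).trans (m21 h).symm
  · exact (m22 g).trans (m22 h).symm

theorem det_block (g : ↥(Cfsg.qdOver F)) : m g 0 0 * m g 1 1 - m g 0 1 * m g 1 0 = 1 := by
  have hd := g.1.det_coe
  rw [Matrix.det_fin_three] at hd
  have h0 := m20 g
  have h1 := m21 g
  have h2 := m22 g
  simp only [m] at h0 h1 h2 ⊢
  rw [h0, h1, h2] at hd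
  linear_combination hd

/-- constructor for elements of `Qd` -/
def mk (A : Matrix (Fin 3) (Fin 3) F) (hdet : A.det = 1) (h20 : A 2 0 = 0)
    (h21 : A 2 1 = 0) (h22 : A 2 2 = 1) : ↥(Cfsg.qdOver F) :=
  ⟨⟨A, hdet⟩, (mem_iff _).2 ⟨h20, h21, h22⟩⟩

theorem m_mk (A : Matrix (Fin 3) (Fin 3) F) (hdet : A.det = 1) (h20 : A 2 0 = 0)
    (h21 : A 2 1 = 0) (h22 : A 2 2 = 1) : m (mk A hdet h20 h21 h22) = A := rfl

/-- The upper-left block, as a homomorphism onto `SL₂(F)`. -/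
def blk : ↥(Cfsg.qdOver F) →* Matrix.SpecialLinearGroup (Fin 2) F where
  toFun g := ⟨!![m g 0 0, m g 0 1; m g 1 0, m g 1 1], by
    rw [Matrix.det_fin_two_of]
    exact det_block g⟩
  map_one' := by
    apply Subtype.ext
    ext i j
    fin_cases i <;> fin_cases j <;> simp [m]
  map_mul' g h := by
    apply Subtype.ext
    change !![m (g * h) 0 0, m (g * h) 0 1; m (g * h) 1 0, m (g * h) 1 1] =
      !![m g 0 0, m g 0 1; m g 1 0, m g 1 1] * !![m h 0 0, m h 0 1; m h 1 0, m h 1 1]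
    ext i j
    fin_cases i <;> fin_cases j <;>
      simp [Matrix.mul_apply, Fin.sum_univ_two, m_mul_apply, m20, m21]

theorem blk_apply (g : ↥(Cfsg.qdOver F)) :
    ((blk g : Matrix.SpecialLinearGroup (Fin 2) F) : Matrix (Fin 2) (Fin 2) F) =
      !![m g 0 0, m g 0 1; m g 1 0, m g 1 1] := rfl

/-- The block-diagonal section. -/
def sec : Matrix.SpecialLinearGroup (Fin 2) F →* ↥(Cfsg.qdOver F) where
  toFun A := mk !![A.1 0 0, A.1 0 1, 0; A.1 1 0, A.1 1 1, 0; 0, 0, 1] (by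
    have := A.2
    rw [Matrix.det_fin_two] at this
    rw [Matrix.det_fin_three]
    simp
    linear_combination this) (by simp) (by simp) (by simp)
  map_one' := by
    apply q_ext
    rw [m_mk]
    ext i j
    fin_cases i <;> fin_cases j <;> simp [m]
  map_mul' A B := by
    apply q_ext
    rw [m_mul, m_mk, m_mk, m_mk]
    ext i j
    fin_cases i <;> fin_cases j <;>
      simp [Matrix.mul_apply, Fin.sum_univ_two, Fin.sum_univ_three]

theorem m_sec (A : Matrix.SpecialLinearGroup (Fin 2) F) :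
    m (sec A) = !![A.1 0 0, A.1 0 1, 0; A.1 1 0, A.1 1 1, 0; 0, 0, 1] := rfl

theorem blk_sec (A : Matrix.SpecialLinearGroup (Fin 2) F) : blk (sec A) = A := by
  apply Subtype.ext
  rw [blk_apply, m_sec]
  ext i j
  fin_cases i <;> fin_cases j <;> simp

theorem blk_surjective : Function.Surjective (blk (F := F)) := fun A => ⟨sec A, blk_sec A⟩

theorem sec_injective : Function.Injective (sec (F := F)) := fun A B h => by
  rw [← blk_sec A, h, blk_sec]

theorem mem_ker_iff (g : ↥(Cfsg.qdOver F)) :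
    g ∈ (blk (F := F)).ker ↔ m g 0 0 = 1 ∧ m g 0 1 = 0 ∧ m g 1 0 = 0 ∧ m g 1 1 = 1 := by
  rw [MonoidHom.mem_ker]
  constructor
  · intro h
    have h' := congrArg Subtype.val h
    rw [blk_apply] at h'
    have e00 := congrFun (congrFun h' 0) 0
    have e01 := congrFun (congrFun h' 0) 1
    have e10 := congrFun (congrFun h' 1) 0
    have e11 := congrFun (congrFun h' 1) 1
    simp at e00 e01 e10 e11
    exact ⟨e00, e01, e10, e11⟩
  · rintro ⟨e00, e01, e10, e11⟩
    apply Subtype.ext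
    rw [blk_apply, e00, e01, e10, e11]
    ext i j
    fin_cases i <;> fin_cases j <;> simp

theorem mem_range_iff (g : ↥(Cfsg.qdOver F)) :
    g ∈ (sec (F := F)).range ↔ m g 0 2 = 0 ∧ m g 1 2 = 0 := by
  constructor
  · rintro ⟨A, rfl⟩
    rw [m_sec]
    simp
  · rintro ⟨h0, h1⟩
    refine ⟨blk g, ?_⟩
    apply q_ext' <;> rw [m_sec, blk_apply] <;> simp [h0, h1]

theorem range_inf_ker : (sec (F := F)).range ⊓ (blk (F := F)).ker = ⊥ := by
  rw [eq_bot_iff]
  rintro g ⟨⟨A, rfl⟩, h2⟩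
  have h2' : blk (sec A) = 1 := h2
  rw [blk_sec] at h2'
  rw [h2', map_one]
  exact Subgroup.one_mem _

theorem range_sup_ker : (sec (F := F)).range ⊔ (blk (F := F)).ker = ⊤ := by
  rw [eq_top_iff]
  intro g _
  have : g = sec (blk g) * ((sec (blk g))⁻¹ * g) := by group
  rw [this]
  apply Subgroup.mul_mem_sup (MonoidHom.mem_range.mpr ⟨blk g, rfl⟩)
  rw [MonoidHom.mem_ker, map_mul, map_inv, blk_sec, inv_mul_cancel]

end Cfsg.Agent.Lib.Helper3.QdOver
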