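import Mathlib
import Cfsg.Prelude.Def_Solvable
import Cfsg.Agent.Lib.Helper3.QdOver.Basic

/-!
# `O_p(Qd(F))` is the translation subgroup
-/

set_option autoImplicit false

namespace Cfsg.Agent.Lib.Helper3.QdOver

open Matrix

variable {F : Type*} [Field F]

theorem pow_p_eq_one_of_mem_ker {p : ℕ} [Fact p.Prime] [CharP F p] (g : ↥(Cfsg.qdOver F))
    (hg : g ∈ (blk (F := F)).ker) : g ^ p = 1 := by
  obtain ⟨e00, e01, e10, e11⟩ := (mem_ker_iff g).mp hg
  apply q_ext
  change (m g) ^ p = 1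
  have h : (m g - 1) ^ 2 = 0 := by
    rw [sq]
    ext i j
    rw [Matrix.mul_apply, Fin.sum_univ_three]
    fin_cases i <;> fin_cases j <;> simp [e00, e01, e10, e11, m20, m21, m22]
  have hNp : (m g - 1) ^ p = 0 := pow_eq_zero_of_le (Fact.out : p.Prime).two_le h
  have h1 := add_pow_char_of_commute p (Commute.one_right (m g - 1))
  rw [sub_add_cancel, hNp, one_pow, zero_add] at h1
  exact h1

theorem ker_isPGroup {p : ℕ} [Fact p.Prime] [CharP F p] : IsPGroup p (blk (F := F)).ker := by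
  intro g
  refine ⟨1, ?_⟩
  rw [pow_one]
  apply Subtype.ext
  exact pow_p_eq_one_of_mem_ker g.1 g.2

theorem exists_sl2_normalise (e : Fin 2 → F) (he : e ≠ 0) :
    ∃ k : Matrix.SpecialLinearGroup (Fin 2) F, k.1.mulVec e = ![1, 0] := by
  by_cases ha : e 0 = 0
  · have hc : e 1 ≠ 0 := by
      intro hc
      apply he
      funext i
      fin_cases i
      · exact ha
      · exact hc
    refine ⟨⟨!![0, (e 1)⁻¹; -(e 1), 0], by simp [Matrix.det_fin_two, hc]⟩, ?_⟩
    funext i
    fin_cases i <;> simp [Matrix.mulVec, dotProduct, Fin.sum_univ_two, hc, ha]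
  · refine ⟨⟨!![(e 0)⁻¹, 0; -(e 1), e 0], by simp [Matrix.det_fin_two, ha]⟩, ?_⟩
    funext i
    fin_cases i <;> simp [Matrix.mulVec, dotProduct, Fin.sum_univ_two, ha]
    ring

/-- A normal `p`-subgroup of `Qd(F)` lies in the translation subgroup. -/
theorem le_ker_of_normal_pGroup [Finite F] {p : ℕ} [Fact p.Prime] [CharP F p]
    (P : Subgroup ↥(Cfsg.qdOver F)) (hn : P.Normal) (hP : IsPGroup p P) :
    P ≤ (blk (F := F)).ker := by
  classical
  have := Fintype.ofFinite F
  let act : MulAction P (Fin 2 → F) :=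
    { smul := fun g v => (blk g.1).1.mulVec v
      one_smul := fun v => by
        change (blk ((1 : P) : ↥(Cfsg.qdOver F))).1.mulVec v = v
        simp
      mul_smul := fun a b v => by
        change (blk ((a * b : P) : ↥(Cfsg.qdOver F))).1.mulVec v =
          (blk a.1).1.mulVec ((blk b.1).1.mulVec v)
        rw [Matrix.mulVec_mulVec, Subgroup.coe_mul, map_mul]
        rfl }
  have hpc : p ∣ Nat.card (Fin 2 → F) := by
    obtain ⟨n, -, hn⟩ := FiniteField.card F p
    rw [Nat.card_eq_fintype_card, Fintype.card_fun, Fintype.card_fin, hn]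
    exact dvd_pow (dvd_pow_self p n.ne_zero) (by norm_num)
  have h0 : (0 : Fin 2 → F) ∈ MulAction.fixedPoints P (Fin 2 → F) := by
    intro g
    change (blk g.1).1.mulVec 0 = 0
    simp
  obtain ⟨v, hv, hne⟩ := hP.exists_fixed_point_of_prime_dvd_card_of_fixed_point _ hpc h0
  have hfix : ∀ x ∈ P, (blk x).1.mulVec v = v := fun x hx => hv ⟨x, hx⟩
  -- the fixed vectors are invariant under `SL₂`
  have hinv : ∀ (B : Matrix.SpecialLinearGroup (Fin 2) F) (u : Fin 2 → F),
      (∀ x ∈ P, (blk x).1.mulVec u = u) → ∀ x ∈ P, (blk x).1.mulVec (B.1.mulVec u) = B.1.mulVec u := by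
    intro B u hu x hx
    have h1 : (sec B)⁻¹ * x * (sec B)⁻¹⁻¹ ∈ P := hn.conj_mem x hx _
    have h2 := hu _ h1
    have h3 : blk x * B = B * blk ((sec B)⁻¹ * x * (sec B)⁻¹⁻¹) := by
      rw [map_mul, map_mul, map_inv, map_inv, map_inv, blk_sec]
      group
    have h4 : (blk x).1 * B.1 = B.1 * (blk ((sec B)⁻¹ * x * (sec B)⁻¹⁻¹)).1 :=
      congrArg Subtype.val h3
    rw [Matrix.mulVec_mulVec, h4, ← Matrix.mulVec_mulVec, h2]
  obtain ⟨k, hk⟩ := exists_sl2_normalise v (Ne.symm hne)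
  have he1 : ∀ x ∈ P, (blk x).1.mulVec ![1, 0] = ![1, 0] := by
    have := hinv k v hfix
    rwa [hk] at this
  have he2 : ∀ x ∈ P, (blk x).1.mulVec ![0, 1] = ![0, 1] := by
    have := hinv ⟨!![0, -1; 1, 0], by simp [Matrix.det_fin_two]⟩ _ he1
    have e : (!![0, -1; 1, 0] : Matrix (Fin 2) (Fin 2) F).mulVec ![1, 0] = ![0, 1] := by
      funext i
      fin_cases i <;> simp [Matrix.mulVec, dotProduct, Fin.sum_univ_two]
    rwa [e] at this
  intro x hx
  rw [mem_ker_iff]
  have a1 := he1 x hx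
  have a2 := he2 x hx
  rw [blk_apply] at a1 a2
  have b0 := congrFun a1 0
  have b1 := congrFun a1 1
  have c0 := congrFun a2 0
  have c1 := congrFun a2 1
  simp [Matrix.mulVec, dotProduct, Fin.sum_univ_two] at b0 b1 c0 c1
  exact ⟨b0, c0, b1, c1⟩

theorem pCore_eq_ker [Finite F] {p : ℕ} [Fact p.Prime] [CharP F p] :
    Cfsg.pCore p ↥(Cfsg.qdOver F) = (blk (F := F)).ker := by
  apply le_antisymm
  · apply sSup_le
    rintro N ⟨hNn, hNp⟩
    exact le_ker_of_normal_pGroup N hNn hNp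
  · exact le_sSup ⟨inferInstance, ker_isPGroup⟩

end Cfsg.Agent.Lib.Helper3.QdOver
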