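import Mathlib
import Cfsg.Agent.Lib.Helper3.QdOver.Core

/-!
# The translation subgroup of `Qd(F)` is a natural `SL₂(F)`-module for the block-diagonal complement
-/

set_option autoImplicit false

namespace Cfsg.Agent.Lib.Helper3.QdOver

open Matrix

variable {F : Type*} [Field F]

/-- translations -/
def tr (x : Fin 2 → F) : ↥(Cfsg.qdOver F) :=
  mk !![1, 0, x 0; 0, 1, x 1; 0, 0, 1] (by simp [Matrix.det_fin_three]) (by simp) (by simp)
    (by simp)

theorem m_tr (x : Fin 2 → F) : m (tr x) = !![1, 0, x 0; 0, 1, x 1; 0, 0, 1] := rfl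

theorem tr_mem_ker (x : Fin 2 → F) : tr x ∈ (blk (F := F)).ker := by
  rw [mem_ker_iff, m_tr]
  simp

/-- The last column. -/
def co (g : ↥(Cfsg.qdOver F)) : Fin 2 → F := ![m g 0 2, m g 1 2]

theorem co_mul (a b : ↥(Cfsg.qdOver F)) (ha : a ∈ (blk (F := F)).ker) :
    co (a * b) = co a + co b := by
  obtain ⟨e00, e01, e10, e11⟩ := (mem_ker_iff a).mp ha
  unfold co
  rw [m_mul_apply, m_mul_apply, e00, e01, e10, e11, m22]
  funext i
  fin_cases i <;> simp [add_comm]

theorem co_tr (x : Fin 2 → F) : co (tr x) = x := by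
  unfold co
  rw [m_tr]
  funext i
  fin_cases i <;> simp

theorem tr_co (a : ↥(Cfsg.qdOver F)) (ha : a ∈ (blk (F := F)).ker) : tr (co a) = a := by
  obtain ⟨e00, e01, e10, e11⟩ := (mem_ker_iff a).mp ha
  apply q_ext' <;> rw [m_tr] <;> simp [e00, e01, e10, e11, co]

/-- The coordinates of a translation. -/
def psi : Additive ↥((blk (F := F)).ker) ≃+ (Fin 2 → F) where
  toFun v := co (Additive.toMul v).1
  invFun x := Additive.ofMul ⟨tr x, tr_mem_ker x⟩
  left_inv v := by
    apply Additive.toMul.injective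
    apply Subtype.ext
    exact tr_co (Additive.toMul v).1 (Additive.toMul v).2
  right_inv x := co_tr x
  map_add' v w := co_mul (Additive.toMul v).1 (Additive.toMul w).1 (Additive.toMul v).2

theorem psi_apply (v : ↥((blk (F := F)).ker)) :
    psi (Additive.ofMul v) = ![m v.1 0 2, m v.1 1 2] := rfl

theorem act_formula (l : ↥(Cfsg.qdOver F)) (hl : l ∈ (sec (F := F)).range)
    (v w : ↥((blk (F := F)).ker)) (hw : w.1 = l * v.1 * l⁻¹) :
    psi (Additive.ofMul w) = (blk l).1.mulVec (psi (Additive.ofMul v)) := by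
  obtain ⟨h0, h1⟩ := (mem_range_iff l).mp hl
  have e : w.1 * l = l * v.1 := by
    rw [hw]
    group
  have a0 := congrArg (fun g => m g 0 2) e
  have a1 := congrArg (fun g => m g 1 2) e
  simp only [m_mul_apply, h0, h1, m22] at a0 a1
  rw [psi_apply, psi_apply, blk_apply]
  funext i
  fin_cases i
  · simp [Matrix.mulVec, dotProduct, Fin.sum_univ_two]
    linear_combination a0
  · simp [Matrix.mulVec, dotProduct, Fin.sum_univ_two]
    linear_combination a1

theorem isNatural :
    Cfsg.IsNaturalSL2Module F (blk (F := F)).ker (sec (F := F)).range := by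
  refine ⟨?_, (blk (F := F)).comp (sec (F := F)).range.subtype, psi, ?_, ?_, ?_⟩
  · rw [Subgroup.normalizer_eq_top]
    exact le_top
  · intro A
    exact ⟨⟨sec A, MonoidHom.mem_range.mpr ⟨A, rfl⟩⟩, blk_sec A⟩
  · ext l
    rw [MonoidHom.mem_ker, Subgroup.mem_subgroupOf, Subgroup.mem_centralizer_iff]
    change blk l.1 = 1 ↔ _
    constructor
    · intro h
      have : l.1 ∈ (sec (F := F)).range ⊓ (blk (F := F)).ker := ⟨l.2, h⟩
      rw [range_inf_ker, Subgroup.mem_bot] at this
      intro t _
      rw [this, mul_one, one_mul]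
    · intro h
      have key : ∀ x : Fin 2 → F, (blk l.1).1.mulVec x = x := by
        intro x
        have h1 := h (tr x) (tr_mem_ker x)
        have h2 : tr x = l.1 * tr x * l.1⁻¹ := by
          rw [← h1]
          group
        have h3 := act_formula l.1 l.2 ⟨tr x, tr_mem_ker x⟩ ⟨tr x, tr_mem_ker x⟩ h2
        have h4 : psi (Additive.ofMul (⟨tr x, tr_mem_ker x⟩ : ↥((blk (F := F)).ker))) = x :=
          psi.right_inv x
        rw [h4] at h3
        exact h3.symm
      apply Subtype.ext
      change (blk l.1).1 = 1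
      apply Matrix.mulVec_injective
      funext x
      rw [key, Matrix.one_mulVec]
  · intro l v
    have hmem : l.1 * v.1 * l.1⁻¹ ∈ (blk (F := F)).ker :=
      (inferInstance : ((blk (F := F)).ker).Normal).conj_mem v.1 v.2 l.1
    exact ⟨⟨_, hmem⟩, rfl, act_formula l.1 l.2 v ⟨_, hmem⟩ rfl⟩

end Cfsg.Agent.Lib.Helper3.QdOver
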